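import Mathlib
import Cfsg.Agent.Lib.Helper74.O720.Defs

set_option autoImplicit false

/-! Farm O720 (helper74), piece T0a. -/

namespace Cfsg.Agent.Lib.Helper74.O720

variable {G : Type*} [Group G] [Finite G] [IsSimpleGroup G]

theorem not_comm (h : Nat.card G = 720) : ¬ IsMulCommutative G := by
  intro hc
  letI : CommGroup G := { (inferInstance : Group G) with mul_comm := fun a b => hc.is_comm.comm a b }
  have : (Nat.card G).Prime := IsSimpleGroup.prime_card
  rw [h] at this
  norm_num at this

end Cfsg.Agent.Lib.Helper74.O720
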