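import Mathlib
import Cfsg.Agent.Lib.Helper74.O720.Defs
import Cfsg.Agent.Lib.Helper50.O720.T0a
import Cfsg.Agent.Lib.Helper20.O720.P9
import Cfsg.Agent.Lib.Helper69.O720.TF

set_option autoImplicit false

/-! Farm O720 (helper74), piece A40. -/

namespace Cfsg.Agent.Lib.Helper74.O720

variable {G : Type*} [Group G] [Finite G] [IsSimpleGroup G]

theorem A40_card_Nz (h : Nat.card G = 720) (h40 : Nat.card (Sylow 3 G) = 40) (P : Sylow 3 G) :
    Nat.card (Nz (P : Subgroup G)) = 18 := by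
  have := card_Nz h P
  rw [h40] at this
  omega

/-- `P` has index two in its normalizer -/
theorem A40_mul_mem_iff (h : Nat.card G = 720) (h40 : Nat.card (Sylow 3 G) = 40) (P : Sylow 3 G)
    {a b : G} (ha : a ∈ Nz (P : Subgroup G)) (hb : b ∈ Nz (P : Subgroup G)) :
    a * b ∈ (P : Subgroup G) ↔ (a ∈ (P : Subgroup G) ↔ b ∈ (P : Subgroup G)) := by
  have hle : (P : Subgroup G) ≤ Nz (P : Subgroup G) := Subgroup.le_normalizer
  have hidx : ((P : Subgroup G).subgroupOf (Nz (P : Subgroup G))).index = 2 := by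
    have h1 := Subgroup.card_mul_index ((P : Subgroup G).subgroupOf (Nz (P : Subgroup G)))
    rw [Nat.card_congr (Subgroup.subgroupOfEquivOfLe hle).toEquiv, card_P h P,
      A40_card_Nz h h40 P] at h1
    omega
  have := Subgroup.mul_mem_iff_of_index_two hidx (a := (⟨a, ha⟩ : Nz (P : Subgroup G)))
    (b := (⟨b, hb⟩ : Nz (P : Subgroup G)))
  simpa [Subgroup.mem_subgroupOf] using this

theorem A40 (h : Nat.card G = 720) (h40 : Nat.card (Sylow 3 G) = 40) (P : Sylow 3 G) (t : G)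
    (ht : t ∈ Nz (P : Subgroup G)) (htP : t ∉ (P : Subgroup G)) (u : G) (hu : u ∈ (P : Subgroup G)) :
    t * u * t⁻¹ = u⁻¹ := by
  have : Fact (Nat.Prime 3) := ⟨Nat.prime_three⟩
  have hv : t * u * t⁻¹ ∈ (P : Subgroup G) := (Subgroup.mem_normalizer_iff.mp ht u).mp hu
  have htt : t * t ∈ (P : Subgroup G) := (A40_mul_mem_iff h h40 P ht ht).2 Iff.rfl
  have e1 : t * (t * u * t⁻¹) * t⁻¹ = u := by
    have := comm_P h P (t * t) htt u hu
    calc t * (t * u * t⁻¹) * t⁻¹ = ((t * t) * u) * (t⁻¹ * t⁻¹) := by group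
      _ = (u * (t * t)) * (t⁻¹ * t⁻¹) := by rw [this]
      _ = u := by group
  have e2 : t * (u * (t * u * t⁻¹)) = (u * (t * u * t⁻¹)) * t := by
    calc t * (u * (t * u * t⁻¹)) = (t * u * t⁻¹) * (t * (t * u * t⁻¹) * t⁻¹) * t := by group
      _ = (t * u * t⁻¹) * u * t := by rw [e1]
      _ = (u * (t * u * t⁻¹)) * t := by rw [comm_P h P _ hv u hu]
  have hw : u * (t * u * t⁻¹) ∈ (P : Subgroup G) := (P : Subgroup G).mul_mem hu hv
  have hw1 : u * (t * u * t⁻¹) = 1 := by
    apply TF (not_comm h) P (comm_P h P) _ hw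
    intro n hn
    by_cases hnP : n ∈ (P : Subgroup G)
    · exact comm_P h P n hnP _ hw
    · have hp : t⁻¹ * n ∈ (P : Subgroup G) := by
        rw [A40_mul_mem_iff h h40 P (inv_mem ht) hn]
        constructor
        · intro h1; exact absurd (by simpa using (P : Subgroup G).inv_mem h1) htP
        · intro h1; exact absurd h1 hnP
      have hc := comm_P h P _ hp _ hw
      calc n * (u * (t * u * t⁻¹)) = t * ((t⁻¹ * n) * (u * (t * u * t⁻¹))) := by group
        _ = t * ((u * (t * u * t⁻¹)) * (t⁻¹ * n)) := by rw [hc]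
        _ = (t * (u * (t * u * t⁻¹))) * (t⁻¹ * n) := by group
        _ = ((u * (t * u * t⁻¹)) * t) * (t⁻¹ * n) := by rw [e2]
        _ = (u * (t * u * t⁻¹)) * n := by group
  exact eq_inv_of_mul_eq_one_right hw1

end Cfsg.Agent.Lib.Helper74.O720
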