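import Mathlib
import Cfsg.Agent.Lib.Helper74.O720.Defs
import Cfsg.Agent.Lib.Helper20.O720.P9
import Cfsg.Agent.Lib.Helper50.O720.A40

set_option autoImplicit false

/-! Farm O720 (helper74), piece B40. -/

namespace Cfsg.Agent.Lib.Helper74.O720

variable {G : Type*} [Group G] [Finite G] [IsSimpleGroup G]

theorem B40 (h : Nat.card G = 720) (h40 : Nat.card (Sylow 3 G) = 40) (P : Sylow 3 G) (X : Subgroup G)
    (hX : X ≤ (P : Subgroup G)) (g : G) (hg : cj g X ≤ (P : Subgroup G)) : cj g X = X := by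
  have : Fact (Nat.Prime 3) := ⟨Nat.prime_three⟩
  apply Subgroup.eq_of_le_of_card_ge _ (card_cj g X).ge
  intro y hy
  have hx : g⁻¹ * y * g ∈ X := mem_cj.mp hy
  set x := g⁻¹ * y * g with hxdef
  have hyx : y = (g⁻¹)⁻¹ * x * g⁻¹ := by rw [hxdef]; group
  have hyP : (g⁻¹)⁻¹ * x * g⁻¹ ∈ (P : Subgroup G) := by rw [← hyx]; exact hg hy
  obtain ⟨n, hn, e⟩ := P.conj_eq_normalizer_conj_of_mem_centralizer x g⁻¹
    (by
      rw [Subgroup.mem_centralizer_iff]
      intro z hz
      exact comm_P h P z hz x (hX hx))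
    (by
      rw [Subgroup.mem_centralizer_iff]
      intro z hz
      exact comm_P h P z hz _ hyP)
  rw [hyx, e]
  by_cases hnP : n ∈ (P : Subgroup G)
  · have : n⁻¹ * x * n = x := by
      rw [mul_assoc, comm_P h P x (hX hx) n hnP, inv_mul_cancel_left]
    rw [this]; exact hx
  · have hn' : n⁻¹ ∈ Nz (P : Subgroup G) := inv_mem hn
    have hnP' : n⁻¹ ∉ (P : Subgroup G) := fun h1 => hnP (by simpa using (P : Subgroup G).inv_mem h1)
    have := A40 h h40 P n⁻¹ hn' hnP' x (hX hx)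
    rw [inv_inv] at this
    rw [this]; exact X.inv_mem hx

end Cfsg.Agent.Lib.Helper74.O720
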