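import Mathlib
import Cfsg.Agent.Lib.Helper74.O720.Defs
import Cfsg.Agent.Lib.Helper20.O720.P9
import Cfsg.Agent.Lib.Helper50.O720.A40
import Cfsg.Agent.Lib.Helper4.O720.NCG

set_option autoImplicit false

/-! Farm O720 (helper74), piece C2. -/

namespace Cfsg.Agent.Lib.Helper74.O720

variable {G : Type*} [Group G] [Finite G] [IsSimpleGroup G]

/-- an element of `Nz P1` centralizing a subgroup of order 3 of `P1` lies in `P1` -/
theorem C2_mem (h : Nat.card G = 720) (h40 : Nat.card (Sylow 3 G) = 40) (X : Subgroup G)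
    (hX : Nat.card X = 3) (P1 : Sylow 3 G) (h1 : X ≤ (P1 : Subgroup G)) (n : G)
    (hn : n ∈ Nz (P1 : Subgroup G)) (hc : n ∈ Cz X) : n ∈ (P1 : Subgroup G) := by
  by_contra hnP
  have hbot : X = ⊥ := by
    rw [eq_bot_iff]
    intro x hx
    have e1 := A40 h h40 P1 n hn hnP x (h1 hx)
    have e2 : x * n = n * x := (Subgroup.mem_centralizer_iff.mp hc) x hx
    have e3 : x = x⁻¹ := by
      rw [← e1, ← e2, mul_inv_cancel_right]
    have e4 : x ^ 3 = 1 := by
      have := pow_card_eq_one' (x := (⟨x, hx⟩ : X))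
      rw [hX] at this
      exact congrArg Subtype.val this
    have e5 : x * x = 1 := by
      nth_rewrite 2 [e3]
      exact mul_inv_cancel x
    rw [Subgroup.mem_bot]
    calc x = x ^ 3 * (x * x)⁻¹ := by group
      _ = 1 := by rw [e4, e5]; simp
  rw [hbot] at hX
  simp at hX

theorem C2 (h : Nat.card G = 720) (h40 : Nat.card (Sylow 3 G) = 40) (X : Subgroup G) (hX : Nat.card X = 3)
    (P1 : Sylow 3 G) (h1 : X ≤ (P1 : Subgroup G)) (h36 : Nat.card (Cz X) = 36) :
    ∃ V : Subgroup G, Nat.card V = 4 ∧ V ≤ Cz X ∧ Nz X ≤ Nz V := by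
  have : Fact (Nat.Prime 3) := ⟨Nat.prime_three⟩
  have hQH : (P1 : Subgroup G) ≤ Cz X := by
    intro z hz
    rw [Subgroup.mem_centralizer_iff]
    intro x hx
    exact comm_P h P1 x (h1 hx) z hz
  obtain ⟨V, hV1, hV2, hV3⟩ := NCG (p := 3) (Cz X) (P1 : Subgroup G) hQH P1.isPGroup'
    (by rw [h36, card_P h P1]; norm_num)
    (by
      rintro n ⟨hn1, hn2⟩
      have hnP := C2_mem h h40 X hX P1 h1 n hn1 hn2
      rw [Subgroup.mem_centralizer_iff]
      intro z hz
      exact comm_P h P1 z hz n hnP)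
  refine ⟨V, ?_, hV1, ?_⟩
  · rw [card_P h P1, h36] at hV2
    omega
  · refine le_trans ?_ hV3
    intro n hn
    apply mem_Nz_of_cj_eq
    rw [← Cz_cj, cj_eq_self_of_mem_Nz hn]

end Cfsg.Agent.Lib.Helper74.O720
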