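import Mathlib
import Cfsg.Agent.Lib.Helper74.O720.Defs
import Cfsg.Agent.Lib.Helper20.O720.P9
import Cfsg.Agent.Lib.Helper20.O720.D3
import Cfsg.Agent.Lib.Helper50.O720.A40
import Cfsg.Agent.Lib.Helper50.O720.C2

set_option autoImplicit false

/-! Farm O720 (helper74), piece C3. -/

namespace Cfsg.Agent.Lib.Helper74.O720

variable {G : Type*} [Group G] [Finite G] [IsSimpleGroup G]

theorem C3 (h : Nat.card G = 720) (h40 : Nat.card (Sylow 3 G) = 40) (X : Subgroup G) (hX : Nat.card X = 3)
    (P1 : Sylow 3 G) (h1 : X ≤ (P1 : Subgroup G)) (h36 : Nat.card (Cz X) = 36) : Nat.card (Nz X) = 72 := by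
  have : Fact (Nat.Prime 3) := ⟨Nat.prime_three⟩
  have hle : Cz X ≤ Nz X := Subgroup.centralizer_le_normalizer (X : Set G)
  -- the index divides 2
  have key := Subgroup.card_dvd_of_injective _ (QuotientGroup.kerLift_injective X.normalizerMonoidHom)
  rw [Subgroup.normalizerMonoidHom_ker, ← Subgroup.index] at key
  have hcyc : IsCyclic X := isCyclic_of_prime_card hX
  rw [hcyc.card_mulAut, hX] at key
  have htot : Nat.totient 3 = 2 := by decide
  rw [htot] at key
  -- the index is not one
  obtain ⟨t, ht, htP⟩ : ∃ t ∈ Nz (P1 : Subgroup G), t ∉ (P1 : Subgroup G) := by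
    by_contra hcon
    push Not at hcon
    have hle' : Nz (P1 : Subgroup G) ≤ (P1 : Subgroup G) := hcon
    have h2 := Subgroup.card_le_of_le hle'
    rw [A40_card_Nz h h40 P1, card_P h P1] at h2
    omega
  have htX : t ∈ Nz X := D3 h h40 P1 X h1 ht
  have htC : t ∉ Cz X := fun hc => htP (C2_mem h h40 X hX P1 h1 t ht hc)
  have hne : ((Cz X).subgroupOf (Nz X)).index ≠ 1 := by
    intro h1'
    rw [Subgroup.index_eq_one] at h1'
    have : (⟨t, htX⟩ : Nz X) ∈ (Cz X).subgroupOf (Nz X) := by rw [h1']; trivial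
    exact htC (Subgroup.mem_subgroupOf.mp this)
  have h2 : ((Cz X).subgroupOf (Nz X)).index = 2 := by
    rcases (Nat.dvd_prime Nat.prime_two).mp key with h3 | h3
    · exact absurd h3 hne
    · exact h3
  have h3 := Subgroup.card_mul_index ((Cz X).subgroupOf (Nz X))
  rw [Nat.card_congr (Subgroup.subgroupOfEquivOfLe hle).toEquiv, h36, h2] at h3
  omega

end Cfsg.Agent.Lib.Helper74.O720
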